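import Cfsg.Agent.H387.KKL.P4b
import Cfsg.Agent.H387.KKL.P3

/-!
# `E₈`: residual involutions of the Weyl group and THREE functionals modulo 2 (helper749)

`P3c`: `w` residual, `f`, `g`, `h` `w`-invariant modulo 2, no root `b` with `w b = -b` is killed by all three: `w = 1` or
`w = w_{D4}`.  The subsets `J` of type `D6`, `E7`, `E8` are excluded by nine vectors whose pairwise differences are roots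
modulo 2 and the radical (`PN`, `RN`).
-/

set_option autoImplicit false
set_option maxRecDepth 100000

namespace Cfsg.Agent.H749.KS

open CoxeterSystem Cfsg Cfsg.Lie Cfsg.Lie.ChevalleyDatum
open Cfsg.Agent.ChevalleyStructure Cfsg.Agent.ChevalleyStructure.Elts Cfsg.Agent.ChevalleyStructure.CoxeterGeom
  Cfsg.Agent.ChevalleyStructure.CoxeterGeomTypes Cfsg.Agent.ChevalleyStructure.NPerm
  Cfsg.Agent.ChevalleyStructure.RootVec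
open Cfsg.Agent.Tits.Roots Cfsg.Agent.Tits.Core Cfsg.Agent.Nodes Cfsg.Agent.Nodes.Reps Cfsg.Agent.Nodes.BNOf
  Cfsg.Agent.Nodes.RGDChev Cfsg.Agent.Nodes.Bruhat Cfsg.Agent.Nodes.NormalForm
open Cfsg.Agent.KFacts.RgdField Cfsg.Agent.KFacts.RgdChevCoord
open Cfsg.Agent.H167.KKL Cfsg.Agent.H387.KKL

/-- the witnesses of the subsets (`Z` also for `126`, `127`, `255`) -/
def tab3 : List Wt := [
  .Z, .C 2 [0, 0, 0, 0, 0, 0, 0, 0] 0, .C 3 [0, 0, 0, 0, 0, 0, 0, 0] 1, .C 2 [0, 0, 0, 0, 0, 0, 0, 0] 0,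
  .C 0 [0, 0, 0, 0, 0, 0, 0, 0] 2, .B 3 3 [2, 0, 4, 0, 0, 0, 0, 0] 0, .C 0 [0, 0, 0, 0, 0, 0, 0, 0] 2,
  .B 3 3 [2, 3, 4, 0, 0, 0, 0, 0] 0, .C 1 [0, 0, 0, 0, 0, 0, 0, 0] 3, .C 1 [0, 0, 0, 0, 0, 0, 0, 0] 3,
  .B 2 3 [0, 2, 0, 4, 0, 0, 0, 0] 1, .B 2 3 [3, 2, 0, 4, 0, 0, 0, 0] 1, .B 0 3 [0, 0, 4, 2, 0, 0, 0, 0] 2,
  .B 1 2 [1, 0, 2, 3, 0, 0, 0, 0] 0, .B 0 2 [0, 1, 3, 2, 0, 0, 0, 0] 1, .B 4 5 [4, 6, 8, 12, 0, 0, 0, 0] 0,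
  .C 3 [0, 0, 0, 0, 0, 0, 0, 0] 4, .C 2 [0, 0, 0, 0, 0, 0, 0, 0] 0, .C 5 [0, 0, 0, 0, 0, 0, 0, 0] 4,
  .C 2 [0, 0, 0, 0, 0, 0, 0, 0] 0, .C 0 [0, 0, 0, 0, 0, 0, 0, 0] 2, .C 5 [0, 0, 0, 0, 0, 0, 0, 0] 4,
  .C 0 [0, 0, 0, 0, 0, 0, 0, 0] 2, .C 5 [0, 0, 0, 0, 0, 0, 0, 0] 4, .B 1 3 [0, 0, 0, 4, 2, 0, 0, 0] 3,
  .B 1 3 [0, 0, 0, 4, 2, 0, 0, 0] 3, .B 5 2 [0, 1, 0, 2, 3, 0, 0, 0] 1, .B 5 2 [0, 1, 0, 2, 3, 0, 0, 0] 1,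
  .B 0 2 [0, 0, 3, 2, 1, 0, 0, 0] 2, .B 1 5 [4, 0, 8, 12, 6, 0, 0, 0] 0, .Z, .B 5 2 [2, 3, 4, 6, 5, 0, 0, 0] 1,
  .C 4 [0, 0, 0, 0, 0, 0, 0, 0] 5, .C 2 [0, 0, 0, 0, 0, 0, 0, 0] 0, .C 3 [0, 0, 0, 0, 0, 0, 0, 0] 1,
  .C 2 [0, 0, 0, 0, 0, 0, 0, 0] 0, .C 0 [0, 0, 0, 0, 0, 0, 0, 0] 2, .C 4 [0, 0, 0, 0, 0, 0, 0, 0] 5,
  .C 0 [0, 0, 0, 0, 0, 0, 0, 0] 2, .C 4 [0, 0, 0, 0, 0, 0, 0, 0] 5, .C 1 [0, 0, 0, 0, 0, 0, 0, 0] 3,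
  .C 1 [0, 0, 0, 0, 0, 0, 0, 0] 3, .C 6 [0, 0, 0, 0, 0, 0, 0, 0] 5, .C 6 [0, 0, 0, 0, 0, 0, 0, 0] 5,
  .C 6 [0, 0, 0, 0, 0, 0, 0, 0] 5, .C 6 [0, 0, 0, 0, 0, 0, 0, 0] 5, .C 6 [0, 0, 0, 0, 0, 0, 0, 0] 5,
  .C 6 [0, 0, 0, 0, 0, 0, 0, 0] 5, .B 3 3 [0, 0, 0, 0, 4, 2, 0, 0] 4, .C 2 [0, 0, 0, 0, 0, 0, 0, 0] 0,
  .B 3 3 [0, 3, 0, 0, 4, 2, 0, 0] 4, .C 2 [0, 0, 0, 0, 0, 0, 0, 0] 0, .C 0 [0, 0, 0, 0, 0, 0, 0, 0] 2,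
  .B 3 3 [2, 0, 4, 0, 4, 2, 0, 0] 0, .C 0 [0, 0, 0, 0, 0, 0, 0, 0] 2, .B 3 3 [2, 3, 4, 0, 4, 2, 0, 0] 0,
  .B 1 2 [0, 0, 0, 3, 2, 1, 0, 0] 3, .B 1 2 [0, 0, 0, 3, 2, 1, 0, 0] 3, .B 2 5 [0, 6, 0, 12, 8, 4, 0, 0] 1,
  .B 2 5 [5, 6, 0, 12, 8, 4, 0, 0] 1, .B 0 5 [0, 0, 8, 6, 4, 2, 0, 0] 2, .B 6 3 [1, 0, 2, 3, 4, 5, 0, 0] 0,
  .B 0 2 [0, 3, 5, 6, 4, 2, 0, 0] 1, .B 6 3 [4, 6, 8, 12, 10, 8, 0, 0] 0, .C 5 [0, 0, 0, 0, 0, 0, 0, 0] 6,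
  .C 2 [0, 0, 0, 0, 0, 0, 0, 0] 0, .C 3 [0, 0, 0, 0, 0, 0, 0, 0] 1, .C 2 [0, 0, 0, 0, 0, 0, 0, 0] 0,
  .C 0 [0, 0, 0, 0, 0, 0, 0, 0] 2, .C 5 [0, 0, 0, 0, 0, 0, 0, 0] 6, .C 0 [0, 0, 0, 0, 0, 0, 0, 0] 2,
  .C 5 [0, 0, 0, 0, 0, 0, 0, 0] 6, .C 1 [0, 0, 0, 0, 0, 0, 0, 0] 3, .C 1 [0, 0, 0, 0, 0, 0, 0, 0] 3,
  .C 5 [0, 0, 0, 0, 0, 0, 0, 0] 6, .C 5 [0, 0, 0, 0, 0, 0, 0, 0] 6, .C 5 [0, 0, 0, 0, 0, 0, 0, 0] 6,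
  .C 5 [0, 0, 0, 0, 0, 0, 0, 0] 6, .C 5 [0, 0, 0, 0, 0, 0, 0, 0] 6, .C 5 [0, 0, 0, 0, 0, 0, 0, 0] 6,
  .C 3 [0, 0, 0, 0, 0, 0, 0, 0] 4, .C 2 [0, 0, 0, 0, 0, 0, 0, 0] 0, .C 7 [0, 0, 0, 0, 0, 0, 0, 0] 6,
  .C 2 [0, 0, 0, 0, 0, 0, 0, 0] 0, .C 0 [0, 0, 0, 0, 0, 0, 0, 0] 2, .C 7 [0, 0, 0, 0, 0, 0, 0, 0] 6,
  .C 0 [0, 0, 0, 0, 0, 0, 0, 0] 2, .C 7 [0, 0, 0, 0, 0, 0, 0, 0] 6, .C 7 [0, 0, 0, 0, 0, 0, 0, 0] 6,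
  .C 7 [0, 0, 0, 0, 0, 0, 0, 0] 6, .C 7 [0, 0, 0, 0, 0, 0, 0, 0] 6, .C 7 [0, 0, 0, 0, 0, 0, 0, 0] 6,
  .C 7 [0, 0, 0, 0, 0, 0, 0, 0] 6, .C 7 [0, 0, 0, 0, 0, 0, 0, 0] 6, .C 7 [0, 0, 0, 0, 0, 0, 0, 0] 6,
  .C 7 [0, 0, 0, 0, 0, 0, 0, 0] 6, .B 4 3 [0, 0, 0, 0, 0, 4, 2, 0] 5, .C 2 [0, 0, 0, 0, 0, 0, 0, 0] 0,
  .C 3 [0, 0, 0, 0, 0, 0, 0, 0] 1, .C 2 [0, 0, 0, 0, 0, 0, 0, 0] 0, .C 0 [0, 0, 0, 0, 0, 0, 0, 0] 2,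
  .B 3 3 [2, 0, 4, 0, 0, 0, 0, 0] 0, .C 0 [0, 0, 0, 0, 0, 0, 0, 0] 2, .B 3 3 [2, 3, 4, 0, 0, 0, 0, 0] 0,
  .C 1 [0, 0, 0, 0, 0, 0, 0, 0] 3, .C 1 [0, 0, 0, 0, 0, 0, 0, 0] 3, .B 2 3 [0, 2, 0, 4, 0, 0, 0, 0] 1,
  .B 2 3 [3, 2, 0, 4, 0, 0, 0, 0] 1, .B 0 3 [0, 0, 4, 2, 0, 0, 0, 0] 2, .B 1 2 [1, 0, 2, 3, 0, 0, 0, 0] 0,
  .B 0 2 [0, 1, 3, 2, 0, 0, 0, 0] 1, .B 4 15 [12, 18, 24, 36, 0, 20, 10, 0] 0, .B 3 2 [0, 0, 0, 0, 3, 2, 1, 0] 4,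
  .C 2 [0, 0, 0, 0, 0, 0, 0, 0] 0, .B 3 2 [0, 2, 0, 0, 3, 2, 1, 0] 4, .C 2 [0, 0, 0, 0, 0, 0, 0, 0] 0,
  .C 0 [0, 0, 0, 0, 0, 0, 0, 0] 2, .B 3 6 [4, 0, 8, 0, 9, 6, 3, 0] 0, .C 0 [0, 0, 0, 0, 0, 0, 0, 0] 2,
  .B 3 6 [4, 6, 8, 0, 9, 6, 3, 0] 0, .B 1 5 [0, 0, 0, 8, 6, 4, 2, 0] 3, .B 1 5 [0, 0, 0, 8, 6, 4, 2, 0] 3,
  .B 2 3 [0, 4, 0, 8, 6, 4, 2, 0] 1, .B 2 3 [3, 4, 0, 8, 6, 4, 2, 0] 1, .B 0 3 [0, 0, 5, 4, 3, 2, 1, 0] 2,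
  .B 1 7 [8, 0, 16, 24, 18, 12, 6, 0] 0, .Z, .Z, .C 6 [0, 0, 0, 0, 0, 0, 0, 0] 7, .C 2 [0, 0, 0, 0, 0, 0, 0, 0] 0,
  .C 3 [0, 0, 0, 0, 0, 0, 0, 0] 1, .C 2 [0, 0, 0, 0, 0, 0, 0, 0] 0, .C 0 [0, 0, 0, 0, 0, 0, 0, 0] 2,
  .C 6 [0, 0, 0, 0, 0, 0, 0, 0] 7, .C 0 [0, 0, 0, 0, 0, 0, 0, 0] 2, .C 6 [0, 0, 0, 0, 0, 0, 0, 0] 7,
  .C 1 [0, 0, 0, 0, 0, 0, 0, 0] 3, .C 1 [0, 0, 0, 0, 0, 0, 0, 0] 3, .C 6 [0, 0, 0, 0, 0, 0, 0, 0] 7,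
  .C 6 [0, 0, 0, 0, 0, 0, 0, 0] 7, .C 6 [0, 0, 0, 0, 0, 0, 0, 0] 7, .C 6 [0, 0, 0, 0, 0, 0, 0, 0] 7,
  .C 6 [0, 0, 0, 0, 0, 0, 0, 0] 7, .C 6 [0, 0, 0, 0, 0, 0, 0, 0] 7, .C 3 [0, 0, 0, 0, 0, 0, 0, 0] 4,
  .C 2 [0, 0, 0, 0, 0, 0, 0, 0] 0, .C 5 [0, 0, 0, 0, 0, 0, 0, 0] 4, .C 2 [0, 0, 0, 0, 0, 0, 0, 0] 0,
  .C 0 [0, 0, 0, 0, 0, 0, 0, 0] 2, .C 5 [0, 0, 0, 0, 0, 0, 0, 0] 4, .C 0 [0, 0, 0, 0, 0, 0, 0, 0] 2,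
  .C 5 [0, 0, 0, 0, 0, 0, 0, 0] 4, .C 6 [0, 0, 0, 0, 0, 0, 0, 0] 7, .C 6 [0, 0, 0, 0, 0, 0, 0, 0] 7,
  .C 6 [0, 0, 0, 0, 0, 0, 0, 0] 7, .C 6 [0, 0, 0, 0, 0, 0, 0, 0] 7, .C 6 [0, 0, 0, 0, 0, 0, 0, 0] 7,
  .C 6 [0, 0, 0, 0, 0, 0, 0, 0] 7, .C 6 [0, 0, 0, 0, 0, 0, 0, 0] 7, .C 6 [0, 0, 0, 0, 0, 0, 0, 0] 7,
  .C 4 [0, 0, 0, 0, 0, 0, 0, 0] 5, .C 2 [0, 0, 0, 0, 0, 0, 0, 0] 0, .C 3 [0, 0, 0, 0, 0, 0, 0, 0] 1,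
  .C 2 [0, 0, 0, 0, 0, 0, 0, 0] 0, .C 0 [0, 0, 0, 0, 0, 0, 0, 0] 2, .C 4 [0, 0, 0, 0, 0, 0, 0, 0] 5,
  .C 0 [0, 0, 0, 0, 0, 0, 0, 0] 2, .C 4 [0, 0, 0, 0, 0, 0, 0, 0] 5, .C 1 [0, 0, 0, 0, 0, 0, 0, 0] 3,
  .C 1 [0, 0, 0, 0, 0, 0, 0, 0] 3, .B 2 3 [0, 2, 0, 4, 0, 0, 0, 0] 1, .B 2 3 [3, 2, 0, 4, 0, 0, 0, 0] 1,
  .B 0 3 [0, 0, 4, 2, 0, 0, 0, 0] 2, .B 1 2 [1, 0, 2, 3, 0, 0, 0, 0] 0, .B 0 2 [0, 1, 3, 2, 0, 0, 0, 0] 1,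
  .B 4 5 [4, 6, 8, 12, 0, 5, 0, 0] 0, .B 3 3 [0, 0, 0, 0, 4, 2, 0, 0] 4, .C 2 [0, 0, 0, 0, 0, 0, 0, 0] 0,
  .B 3 3 [0, 3, 0, 0, 4, 2, 0, 0] 4, .C 2 [0, 0, 0, 0, 0, 0, 0, 0] 0, .C 0 [0, 0, 0, 0, 0, 0, 0, 0] 2,
  .B 3 3 [2, 0, 4, 0, 4, 2, 0, 0] 0, .C 0 [0, 0, 0, 0, 0, 0, 0, 0] 2, .B 3 3 [2, 3, 4, 0, 4, 2, 0, 0] 0,
  .B 1 2 [0, 0, 0, 3, 2, 1, 0, 0] 3, .B 1 2 [0, 0, 0, 3, 2, 1, 0, 0] 3, .B 2 5 [0, 6, 0, 12, 8, 4, 0, 0] 1,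
  .B 2 5 [5, 6, 0, 12, 8, 4, 0, 0] 1, .B 0 5 [0, 0, 8, 6, 4, 2, 0, 0] 2, .B 6 3 [1, 0, 2, 3, 4, 5, 0, 3] 0,
  .B 0 2 [0, 3, 5, 6, 4, 2, 0, 0] 1, .B 6 3 [4, 6, 8, 12, 10, 8, 0, 3] 0, .B 5 3 [0, 0, 0, 0, 0, 0, 4, 2] 6,
  .C 2 [0, 0, 0, 0, 0, 0, 0, 0] 0, .C 3 [0, 0, 0, 0, 0, 0, 0, 0] 1, .C 2 [0, 0, 0, 0, 0, 0, 0, 0] 0,
  .C 0 [0, 0, 0, 0, 0, 0, 0, 0] 2, .B 3 3 [2, 0, 4, 0, 0, 0, 0, 0] 0, .C 0 [0, 0, 0, 0, 0, 0, 0, 0] 2,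
  .B 3 3 [2, 3, 4, 0, 0, 0, 0, 0] 0, .C 1 [0, 0, 0, 0, 0, 0, 0, 0] 3, .C 1 [0, 0, 0, 0, 0, 0, 0, 0] 3,
  .B 2 3 [0, 2, 0, 4, 0, 0, 0, 0] 1, .B 2 3 [3, 2, 0, 4, 0, 0, 0, 0] 1, .B 0 3 [0, 0, 4, 2, 0, 0, 0, 0] 2,
  .B 1 2 [1, 0, 2, 3, 0, 0, 0, 0] 0, .B 0 2 [0, 1, 3, 2, 0, 0, 0, 0] 1, .B 4 5 [4, 6, 8, 12, 0, 0, 0, 0] 0,
  .C 3 [0, 0, 0, 0, 0, 0, 0, 0] 4, .C 2 [0, 0, 0, 0, 0, 0, 0, 0] 0, .B 5 3 [0, 0, 0, 0, 3, 0, 4, 2] 6,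
  .C 2 [0, 0, 0, 0, 0, 0, 0, 0] 0, .C 0 [0, 0, 0, 0, 0, 0, 0, 0] 2, .B 3 3 [2, 0, 4, 0, 3, 0, 0, 0] 0,
  .C 0 [0, 0, 0, 0, 0, 0, 0, 0] 2, .B 3 3 [2, 3, 4, 0, 3, 0, 0, 0] 0, .B 1 3 [0, 0, 0, 4, 2, 0, 0, 0] 3,
  .B 1 3 [0, 0, 0, 4, 2, 0, 0, 0] 3, .B 5 6 [0, 3, 0, 6, 9, 0, 8, 4] 1, .B 5 6 [0, 3, 0, 6, 9, 0, 8, 4] 1,
  .B 0 2 [0, 0, 3, 2, 1, 0, 0, 0] 2, .B 1 5 [4, 0, 8, 12, 6, 0, 0, 0] 0, .B 5 3 [0, 3, 3, 6, 6, 0, 4, 2] 6,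
  .B 5 6 [6, 9, 12, 18, 15, 0, 8, 4] 1, .B 4 2 [0, 0, 0, 0, 0, 3, 2, 1] 5, .C 2 [0, 0, 0, 0, 0, 0, 0, 0] 0,
  .C 3 [0, 0, 0, 0, 0, 0, 0, 0] 1, .C 2 [0, 0, 0, 0, 0, 0, 0, 0] 0, .C 0 [0, 0, 0, 0, 0, 0, 0, 0] 2,
  .B 3 3 [2, 0, 4, 0, 0, 0, 0, 0] 0, .C 0 [0, 0, 0, 0, 0, 0, 0, 0] 2, .B 3 3 [2, 3, 4, 0, 0, 0, 0, 0] 0,
  .C 1 [0, 0, 0, 0, 0, 0, 0, 0] 3, .C 1 [0, 0, 0, 0, 0, 0, 0, 0] 3, .B 2 3 [0, 2, 0, 4, 0, 0, 0, 0] 1,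
  .B 2 3 [3, 2, 0, 4, 0, 0, 0, 0] 1, .B 0 3 [0, 0, 4, 2, 0, 0, 0, 0] 2, .B 1 2 [1, 0, 2, 3, 0, 0, 0, 0] 0,
  .B 0 2 [0, 1, 3, 2, 0, 0, 0, 0] 1, .B 4 10 [8, 12, 16, 24, 0, 15, 10, 5] 0, .B 3 5 [0, 0, 0, 0, 8, 6, 4, 2] 4,
  .C 2 [0, 0, 0, 0, 0, 0, 0, 0] 0, .B 3 5 [0, 5, 0, 0, 8, 6, 4, 2] 4, .C 2 [0, 0, 0, 0, 0, 0, 0, 0] 0,
  .C 0 [0, 0, 0, 0, 0, 0, 0, 0] 2, .B 3 15 [10, 0, 20, 0, 24, 18, 12, 6] 0, .C 0 [0, 0, 0, 0, 0, 0, 0, 0] 2,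
  .B 3 15 [10, 15, 20, 0, 24, 18, 12, 6] 0, .B 1 3 [0, 0, 0, 5, 4, 3, 2, 1] 3, .B 1 3 [0, 0, 0, 5, 4, 3, 2, 1] 3,
  .B 2 7 [0, 10, 0, 20, 16, 12, 8, 4] 1, .B 2 7 [7, 10, 0, 20, 16, 12, 8, 4] 1, .B 0 7 [0, 0, 12, 10, 8, 6, 4, 2] 2,
  .B 1 4 [5, 0, 10, 15, 12, 9, 6, 3] 0, .B 0 2 [0, 5, 7, 10, 8, 6, 4, 2] 1, .Z]

set_option backward.isDefEq.respectTransparency false in
theorem ok3 : ∀ m < 256, m = 126 ∨ m = 127 ∨ m = 255 ∨ Ok m (tab3.getD m .Z) := by decide +kernel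

theorem noA : ∀ m < 256, ∀ p q r s : Fin 8, tab3.getD m .Z ≠ .A p q r s := by
  intro m hm p q r s h
  have h1 : ∀ m < 256, (match tab3.getD m .Z with | .A _ _ _ _ => false | _ => true) = true := by decide +kernel
  have h2 := h1 m hm
  rw [h] at h2
  exact Bool.noConfusion h2

/-- nine vectors modulo 2 -/
def PN (m : ℕ) : List ℕ := if m = 126 then [0, 2, 8, 10, 16, 18, 24, 26, 32] else if m = 127 then [0, 1, 2, 3, 4, 5, 6, 7, 8] else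
  [0, 1, 4, 12, 14, 39, 71, 149, 199]

def R126 : List (ℕ × ℕ × ℕ × ℕ) := [
  (0, 1, 104, 6), (0, 2, 109, 0), (0, 3, 103, 6), (0, 4, 113, 0), (0, 5, 118, 82), (0, 6, 108, 0), (0, 7, 102, 6),
  (0, 8, 116, 0), (1, 2, 103, 6), (1, 3, 109, 0), (1, 4, 118, 82), (1, 5, 113, 0), (1, 6, 102, 6), (1, 7, 108, 0),
  (1, 8, 111, 82), (2, 3, 104, 6), (2, 4, 108, 0), (2, 5, 102, 6), (2, 6, 113, 0), (2, 7, 118, 82), (2, 8, 100, 84),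
  (3, 4, 102, 6), (3, 5, 108, 0), (3, 6, 118, 82), (3, 7, 113, 0), (3, 8, 106, 82), (4, 5, 104, 6), (4, 6, 109, 0),
  (4, 7, 103, 6), (4, 8, 112, 0), (5, 6, 103, 6), (5, 7, 109, 0), (5, 8, 115, 82), (6, 7, 104, 6), (6, 8, 107, 0),
  (7, 8, 101, 6)]

def R127 : List (ℕ × ℕ × ℕ × ℕ) := [
  (0, 1, 77, 0), (0, 2, 98, 0), (0, 3, 25, 82), (0, 4, 104, 0), (0, 5, 76, 0), (0, 6, 13, 82), (0, 7, 20, 82),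
  (0, 8, 109, 0), (1, 2, 25, 82), (1, 3, 98, 0), (1, 4, 76, 0), (1, 5, 104, 0), (1, 6, 20, 82), (1, 7, 13, 82),
  (1, 8, 39, 82), (2, 3, 77, 0), (2, 4, 13, 82), (2, 5, 20, 82), (2, 6, 104, 0), (2, 7, 76, 0), (2, 8, 97, 0),
  (3, 4, 20, 82), (3, 5, 13, 82), (3, 6, 76, 0), (3, 7, 104, 0), (3, 8, 29, 82), (4, 5, 77, 0), (4, 6, 98, 0),
  (4, 7, 25, 82), (4, 8, 103, 0), (5, 6, 25, 82), (5, 7, 98, 0), (5, 8, 75, 0), (6, 7, 77, 0), (6, 8, 92, 0),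
  (7, 8, 70, 0)]

def R255 : List (ℕ × ℕ × ℕ × ℕ) := [
  (0, 1, 77, 0), (0, 2, 104, 0), (0, 3, 103, 0), (0, 4, 92, 0), (0, 5, 61, 0), (0, 6, 58, 0), (0, 7, 18, 0),
  (0, 8, 57, 0), (1, 2, 76, 0), (1, 3, 75, 0), (1, 4, 70, 0), (1, 5, 83, 0), (1, 6, 80, 0), (1, 7, 11, 0),
  (1, 8, 79, 0), (2, 3, 109, 0), (2, 4, 97, 0), (2, 5, 51, 0), (2, 6, 48, 0), (2, 7, 23, 0), (2, 8, 47, 0),
  (3, 4, 98, 0), (3, 5, 45, 0), (3, 6, 42, 0), (3, 7, 27, 0), (3, 8, 41, 0), (4, 5, 35, 0), (4, 6, 32, 0),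
  (4, 7, 37, 0), (4, 8, 31, 0), (5, 6, 115, 0), (5, 7, 3, 0), (5, 8, 114, 0), (6, 7, 1, 0), (6, 8, 119, 0),
  (7, 8, 0, 0)]

/-- the roots joining them: `(i, j, root, element of the radical)` -/
def RN (m : ℕ) : List (ℕ × ℕ × ℕ × ℕ) := if m = 126 then R126 else if m = 127 then R127 else R255

/-- the radical -/
def radc (m ρ : ℕ) : Prop := ρ = 0 ∨ (m = 126 ∧ (ρ = 82 ∨ ρ = 84 ∨ ρ = 6)) ∨ (m = 127 ∧ ρ = 82)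

instance (m ρ : ℕ) : Decidable (radc m ρ) := by unfold radc; infer_instance

/-- the data are correct -/
def goodB (m : ℕ) : Bool := ((List.range 9).all fun i => (List.range 9).all fun j => !(decide (i < j)) ||
    (RN m).any fun t => t.1 == i && t.2.1 == j) &&
  (RN m).all fun t => decide (t.2.2.1 < 240) && decide (radc m t.2.2.2) &&
    ((List.finRange 8).all fun c : Fin 8 =>
      ((((PN m).getD t.1 0 ^^^ (PN m).getD t.2.1 0) ^^^ t.2.2.2).testBit c ==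
        decide (rt chevE8 t.2.2.1 c % 2 ≠ 0)) && (m.testBit c || decide (rt chevE8 t.2.2.1 c = 0)))

/-- the data are correct -/
def Good (m : ℕ) : Prop := ∀ i < 9, ∀ j < 9, i < j → ∃ t ∈ RN m, t.1 = i ∧ t.2.1 = j ∧ t.2.2.1 < 240 ∧
  radc m t.2.2.2 ∧ (∀ c : Fin 8, (((PN m).getD i 0 ^^^ (PN m).getD j 0) ^^^ t.2.2.2).testBit c =
    decide (rt chevE8 t.2.2.1 c % 2 ≠ 0)) ∧ ∀ c : Fin 8, m.testBit c = false → rt chevE8 t.2.2.1 c = 0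

theorem good_of {m : ℕ} (h : goodB m = true) : Good m := by
  unfold goodB at h
  rw [Bool.and_eq_true, List.all_eq_true, List.all_eq_true] at h
  obtain ⟨h1, h2⟩ := h
  intro i hi j hj hij
  have h3 := h1 i (List.mem_range.2 hi)
  rw [List.all_eq_true] at h3
  have h4 := h3 j (List.mem_range.2 hj)
  rw [Bool.or_eq_true] at h4
  rcases h4 with h4 | h4
  · simp [hij] at h4
  · rw [List.any_eq_true] at h4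
    obtain ⟨t, ht, h5⟩ := h4
    rw [Bool.and_eq_true, beq_iff_eq, beq_iff_eq] at h5
    obtain ⟨rfl, rfl⟩ := h5
    have h6 := h2 t ht
    rw [Bool.and_eq_true, Bool.and_eq_true, decide_eq_true_iff, decide_eq_true_iff, List.all_eq_true] at h6
    obtain ⟨⟨h7, h8⟩, h9⟩ := h6
    refine ⟨t, ht, rfl, rfl, h7, h8, fun c => ?_, fun c hc => ?_⟩
    · have h10 := h9 c (List.mem_finRange c)
      rw [Bool.and_eq_true, beq_iff_eq] at h10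
      exact h10.1
    · have h10 := h9 c (List.mem_finRange c)
      rw [Bool.and_eq_true, hc, Bool.false_or, decide_eq_true_iff] at h10
      exact h10.2

set_option backward.isDefEq.respectTransparency false in
theorem good126 : Good 126 := good_of (by decide +kernel)
set_option backward.isDefEq.respectTransparency false in
theorem good127 : Good 127 := good_of (by decide +kernel)
set_option backward.isDefEq.respectTransparency false in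
theorem good255 : Good 255 := good_of (by decide +kernel)

theorem cert126 : Cert 126 0 1 ![0, 2, 3, 4, 3, 2, 1, 0] ∧ Cert 126 7 1 ![0, 1, 1, 2, 2, 2, 2, 0] := by decide +kernel
theorem cert127 : Cert 127 7 1 ![2, 3, 4, 6, 5, 4, 3, 0] := by decide +kernel

/-! ### functionals modulo 2 -/

/-- the value on a mask -/
noncomputable def fm (f : (Fin 8 → ℤ) →+ ZMod 2) (μ : ℕ) : ZMod 2 := ∑ i : Fin 8, if μ.testBit i then f (sr i) else 0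

theorem fm_zero (f : (Fin 8 → ℤ) →+ ZMod 2) : fm f 0 = 0 := by
  unfold fm
  refine Finset.sum_eq_zero fun i _ => ?_
  rw [Nat.zero_testBit]
  rfl

theorem fm_xor (f : (Fin 8 → ℤ) →+ ZMod 2) (a b : ℕ) : fm f (a ^^^ b) = fm f a + fm f b := by
  unfold fm
  rw [← Finset.sum_add_distrib]
  refine Finset.sum_congr rfl fun i _ => ?_
  rw [Nat.testBit_xor]
  cases a.testBit i <;> cases b.testBit i <;> simp [CharTwo.add_self_eq_zero]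

theorem fm_of (f : (Fin 8 → ℤ) →+ ZMod 2) {μ : ℕ} {v : Fin 8 → ℤ}
    (h : ∀ i : Fin 8, μ.testBit i = decide (v i % 2 ≠ 0)) : f v = fm f μ := by
  conv_lhs => rw [Cfsg.Agent.H798.KKL.eq_sum_sr v, map_sum]
  unfold fm
  refine Finset.sum_congr rfl fun i _ => ?_
  rw [map_zsmul, h i, zsmul_eq_mul]
  by_cases h1 : v i % 2 = 0
  · have h2 : ((v i : ℤ) : ZMod 2) = 0 := by
      rw [ZMod.intCast_zmod_eq_zero_iff_dvd]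
      exact_mod_cast Int.dvd_of_emod_eq_zero h1
    rw [h2, zero_mul]
    simp [h1]
  · have h2 : ((v i : ℤ) : ZMod 2) = 1 := by
      have h3 : v i % 2 = 1 := by omega
      have h4 : v i = 2 * (v i / 2) + 1 := by omega
      rw [h4]
      push_cast
      have h5 : (2 : ZMod 2) = 0 := by decide
      rw [h5, zero_mul, zero_add]
    rw [h2, one_mul]
    simp [h1]

variable (hp : IsType chevE8 8 CoxeterMatrix.E₈) {w : CoxeterMatrix.E₈.Group}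

/-- the pigeonhole step -/
theorem no_good {m : ℕ} (hG : Good m)
    (hJ : ∀ i : Fin 8, Nat.testBit m i = true → wv hp.isCartan w (sr i) = -sr i)
    (f g h : (Fin 8 → ℤ) →+ ZMod 2)
    (hrf : ∀ ρ, radc m ρ → fm f ρ = 0) (hrg : ∀ ρ, radc m ρ → fm g ρ = 0) (hrh : ∀ ρ, radc m ρ → fm h ρ = 0)
    (hb : ∀ b, rt' hp.isCartan b → wv hp.isCartan w b = -b → f b ≠ 0 ∨ g b ≠ 0 ∨ h b ≠ 0) : False := by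
  obtain ⟨i, j, hij, e⟩ := Fintype.exists_ne_map_eq_of_card_lt
    (fun i : Fin 9 => (fm f ((PN m).getD i 0), fm g ((PN m).getD i 0), fm h ((PN m).getD i 0)))
    (by simp [ZMod.card])
  wlog hlt : (i : ℕ) < j generalizing i j
  · exact this j i hij.symm e.symm (lt_of_le_of_ne (not_lt.1 hlt) fun h1 => hij (Fin.ext h1).symm)
  obtain ⟨⟨_, _, r, ρ⟩, -, rfl, rfl, hr, hρ, h1, h2⟩ := hG i i.2 j j.2 hlt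
  simp only at hr hρ h1 h2
  have hR : wv hp.isCartan w (vec chevE8 8 r) = -vec chevE8 8 r := by
    have e1 : vec chevE8 8 r = ∑ c : Fin 8, vec chevE8 8 r c • (sr c : Fin 8 → ℤ) :=
      Cfsg.Agent.H798.KKL.eq_sum_sr _
    conv_lhs => rw [e1]
    conv_rhs => rw [e1]
    show rep _ _ _ _ = _
    rw [map_sum, ← Finset.sum_neg_distrib]
    refine Finset.sum_congr rfl fun c _ => ?_
    rw [map_smul]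
    by_cases hc : m.testBit c = true
    · have h3 : rep CoxeterMatrix.E₈.toCoxeterSystem hp.isCartan w (sr c) = -sr c := hJ c hc
      rw [h3, smul_neg]
    · have h3 : vec chevE8 8 r c = 0 := h2 c (by simpa using hc)
      rw [h3, zero_smul, zero_smul, neg_zero]
  have key : ∀ f : (Fin 8 → ℤ) →+ ZMod 2, (∀ ρ, radc m ρ → fm f ρ = 0) →
      fm f ((PN m).getD i 0) = fm f ((PN m).getD j 0) → f (vec chevE8 8 r) = 0 := by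
    intro f hrf hf
    rw [fm_of f (v := vec chevE8 8 r) h1, fm_xor, fm_xor, hrf ρ hρ, hf, add_zero, CharTwo.add_self_eq_zero]
  rw [Prod.mk.injEq, Prod.mk.injEq] at e
  rcases hb _ (isRoot_vec hp CoxeterMatrix.E₈.toCoxeterSystem (r := r) (by rw [nr]; exact hr)) hR with h3 | h3 | h3
  · exact h3 (key f hrf e.1)
  · exact h3 (key g hrg e.2.1)
  · exact h3 (key h hrh e.2.2)

theorem P3c_of (P1 : ∀ (j : Fin 8) (d : ℤ) (r : Fin 8 → ℤ),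
      (∀ i, wv hp.isCartan w (sr i) ≠ -sr i → r i = 0) →
      (∀ i, wv hp.isCartan w (sr i) = -sr i → pairing (cartanOf chevE8 8) i r = -2 * d * cartanOf chevE8 8 i j) →
      d • (wv hp.isCartan w (sr j) - sr j) = r)
    (f g h : (Fin 8 → ℤ) →+ ZMod 2) (hf : ∀ x, f (wv hp.isCartan w x) = f x) (hg : ∀ x, g (wv hp.isCartan w x) = g x)
    (hh : ∀ x, h (wv hp.isCartan w x) = h x)
    (hb : ∀ b, rt' hp.isCartan b → wv hp.isCartan w b = -b → f b ≠ 0 ∨ g b ≠ 0 ∨ h b ≠ 0) :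
    w = 1 ∨ ∀ j, wv hp.isCartan w (sr j) = sr j + d4 j := by
  classical
  obtain ⟨m, hm, hJ⟩ := Cfsg.Agent.H387.KKL.exists_mask fun i => decide (wv hp.isCartan w (sr i) = -sr i)
  have hJt : ∀ i : Fin 8, Nat.testBit m i = true ↔ wv hp.isCartan w (sr i) = -sr i := fun i => by
    rw [hJ i]; exact decide_eq_true_iff
  have hJf : ∀ i : Fin 8, Nat.testBit m i = false ↔ wv hp.isCartan w (sr i) ≠ -sr i := fun i => by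
    rw [hJ i]; exact decide_eq_false_iff_not
  -- certificates
  have cert : ∀ {j : Fin 8} {d : ℤ} {r : Fin 8 → ℤ}, Cert m j d r → d • (wv hp.isCartan w (sr j) - sr j) = r := by
    intro j d r hc
    refine P1 j d r (fun i hi => hc.1 i ((hJf i).2 hi)) fun i hi => ?_
    have h1 := hc.2 i ((hJt i).2 hi)
    rw [pairing, Fin.sum_univ_eight]
    simp only [AE_eq]
    exact h1
  have kil : ∀ {j : Fin 8} {r : Fin 8 → ℤ}, Cert m j 1 r → ∀ f : (Fin 8 → ℤ) →+ ZMod 2,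
      (∀ x, f (wv hp.isCartan w x) = f x) → f r = 0 := by
    intro j r hc f hf
    rw [← cert hc, one_smul, map_sub, hf, sub_self]
  rcases ok3 m hm with rfl | rfl | rfl | hok
  · exfalso
    have k : ∀ f : (Fin 8 → ℤ) →+ ZMod 2, (∀ x, f (wv hp.isCartan w x) = f x) → ∀ ρ, radc 126 ρ → fm f ρ = 0 := by
      intro f hf ρ hρ
      have h1 : fm f 84 = 0 := by
        rw [← fm_of f (μ := 84) (v := ![0, 2, 3, 4, 3, 2, 1, 0]) (by decide)]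
        exact kil cert126.1 f hf
      have h2 : fm f 6 = 0 := by
        rw [← fm_of f (μ := 6) (v := ![0, 1, 1, 2, 2, 2, 2, 0]) (by decide)]
        exact kil cert126.2 f hf
      rcases hρ with rfl | ⟨-, rfl | rfl | rfl⟩ | ⟨h3, -⟩
      · exact fm_zero f
      · have : (82 : ℕ) = 84 ^^^ 6 := by decide
        rw [this, fm_xor, h1, h2, add_zero]
      · exact h1
      · exact h2
      · exact absurd h3 (by norm_num)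
    exact no_good hp good126 (fun i hi => (hJt i).1 hi) f g h (k f hf) (k g hg) (k h hh) hb
  · exfalso
    have k : ∀ f : (Fin 8 → ℤ) →+ ZMod 2, (∀ x, f (wv hp.isCartan w x) = f x) → ∀ ρ, radc 127 ρ → fm f ρ = 0 := by
      intro f hf ρ hρ
      have h1 : fm f 82 = 0 := by
        rw [← fm_of f (μ := 82) (v := ![2, 3, 4, 6, 5, 4, 3, 0]) (by decide)]
        exact kil cert127 f hf
      rcases hρ with rfl | ⟨h3, -⟩ | ⟨-, rfl⟩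
      · exact fm_zero f
      · exact absurd h3 (by norm_num)
      · exact h1
    exact no_good hp good127 (fun i hi => (hJt i).1 hi) f g h (k f hf) (k g hg) (k h hh) hb
  · exfalso
    have k : ∀ f : (Fin 8 → ℤ) →+ ZMod 2, ∀ ρ, radc 255 ρ → fm f ρ = 0 := by
      intro f ρ hρ
      rcases hρ with rfl | ⟨h3, -⟩ | ⟨h3, -⟩
      · exact fm_zero f
      · exact absurd h3 (by norm_num)
      · exact absurd h3 (by norm_num)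
    exact no_good hp good255 (fun i hi => (hJt i).1 hi) f g h (k f) (k g) (k h) hb
  · have hA := noA m hm
    revert hok hA
    generalize tab3.getD m .Z = W
    intro hok hA
    cases W with
    | A p q r s => exact absurd rfl (hA p q r s)
    | B j d r i =>
      exfalso
      obtain ⟨hc, hd⟩ := hok
      apply hd
      rw [← cert hc]
      exact Dvd.intro _ rfl
    | C j r i =>
      exfalso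
      obtain ⟨hc, hi⟩ := hok
      have h2 : lw r i = sr i + ((fun k : Fin 8 => r.getD k 0) + fun k : Fin 8 => r.getD k 0) := by
        funext k
        show (if k = i then 1 else 0) + 2 * r.getD k 0 = sr i k + (r.getD k 0 + r.getD k 0)
        rw [two_mul]
        congr 1
        by_cases hk : k = i
        · rw [if_pos hk, hk, sr_self]
        · rw [if_neg hk, sr_ne hk]
      have key : ∀ f : (Fin 8 → ℤ) →+ ZMod 2, (∀ x, f (wv hp.isCartan w x) = f x) → f (sr i) = 0 := by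
        intro f hf
        have h3 : f (lw r i) = 0 := kil hc f hf
        rw [h2, map_add, map_add, CharTwo.add_self_eq_zero, add_zero] at h3
        exact h3
      rcases hb _ (isRoot_sr CoxeterMatrix.E₈.toCoxeterSystem hp.isCartan i) ((hJt i).1 hi) with h3 | h3 | h3
      · exact h3 (key f hf)
      · exact h3 (key g hg)
      · exact h3 (key h hh)
    | Z =>
      rcases hok with rfl | rfl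
      · left
        refine eq_one_of_fix CoxeterMatrix.E₈.toCoxeterSystem hp.isCartan w fun j => ?_
        have h1 := P1 j 1 0 (fun i _ => rfl) (fun i hi => absurd ((hJt i).2 hi) (by simp))
        rw [one_smul] at h1
        exact sub_eq_zero.1 h1
      · right
        intro j
        have h1 := cert (ok_d4 j).2
        rw [one_smul] at h1
        rw [← h1]
        abel

/-- **P3 for three functionals** -/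
theorem P3c (hw : Res hp.isCartan w)
    (f g h : (Fin 8 → ℤ) →+ ZMod 2) (hf : ∀ x, f (wv hp.isCartan w x) = f x) (hg : ∀ x, g (wv hp.isCartan w x) = g x)
    (hh : ∀ x, h (wv hp.isCartan w x) = h x)
    (hb : ∀ b, rt' hp.isCartan b → wv hp.isCartan w b = -b → f b ≠ 0 ∨ g b ≠ 0 ∨ h b ≠ 0) :
    w = 1 ∨ ∀ j, wv hp.isCartan w (sr j) = sr j + d4 j := by
  have hfin : Finite CoxeterMatrix.E₈.Group := Cfsg.Agent.Nodes.TyCox.finiteE8 CoxeterMatrix.E₈.toCoxeterSystem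
  exact P3c_of hp (Cfsg.Agent.H798.KKL.P1 hp.isCartan hw) f g h hf hg hh hb

end Cfsg.Agent.H749.KS
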